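import Cfsg.Agent.H965.XZ.IdxB
import Cfsg.Agent.H796.XZ.LinDefs

/-!
# S4791 + S4927, the linear primes: the proper parabolic subgroups of `(A_{e-1})^w` (helper614 for helper636)

* `card_seg` : the order of a parabolic subgroup with a component of type `A` (an interval of nodes);
* `dvd_relIndex` : `p` divides the index of `P_K` in `P_{JA}` for every proper subset `K` of `JA`, `e = ord_p(y) > 1`.
-/

set_option autoImplicit false
set_option linter.unusedSectionVars false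

namespace Cfsg.Agent.H614.XZ

open CoxeterSystem Cfsg.Agent.ChevalleyStructure.CoxeterGeom Cfsg.Agent.Tits.Roots Cfsg.Agent.Tits.Core
  Cfsg.Agent.Tits.RootComb Cfsg.Agent.Tits.Exchange Cfsg.Agent.Nodes.Comb Cfsg.Agent.Nodes.Reps
  Cfsg.Agent.Nodes.BNOf Cfsg.Agent.Nodes.StabComb Cfsg.Agent.Nodes.Bruhat Cfsg.Agent.Nodes.OppDec
  Cfsg.Agent.Nodes.LeviDec Cfsg.Agent.Nodes.NormalForm Cfsg.Agent.ChevalleyStructure.WeylAbstract
  Cfsg.Agent.H35.Poin Cfsg.Agent.H965.XZ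
open Cfsg.Agent.H796.XZ (JA JT)

section Cartan

variable {m : ℕ} {A : Fin m → Fin m → ℤ} (h : IsCartan (CoxeterMatrix.B m) A)

include h

/-- an interval of nodes -/
theorem apath_seg (hm : 0 < m) {J : Set (Fin m)} {s l : ℕ} (hs : s + l < m) (hin : ∀ t < l, nd hm (s + t) ∈ J)
    (hlo : ∀ j ∈ J, (j : ℕ) + 1 ≠ s) (hhi : ∀ j ∈ J, (j : ℕ) ≠ s + l) : APath A J (fun t => nd hm (s + t)) l where
  mem := hin
  adj t ht := cart_adj h (by rw [nd_val hm (by omega), nd_val hm (by omega)]; omega) (by rw [nd_val hm (by omega)]; omega)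
  far t t' hs ht := cart_far h (by rw [nd_val hm (by omega), nd_val hm (by omega)]; omega)
  out j hj hc t ht := by
    have h1 := hlo j hj
    have h2 := hhi j hj
    have h3 : (j : ℕ) < s ∨ s + l ≤ (j : ℕ) := by
      by_contra h4
      push Not at h4
      refine hc ((j : ℕ) - s) (by omega) (Fin.ext ?_)
      rw [nd_val hm (by omega)]
      omega
    rcases h3 with h3 | h3
    · exact (cart_far h (by rw [nd_val hm (by omega)]; omega)).2
    · exact (cart_far h (by rw [nd_val hm (by omega)]; omega)).1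
  inj t ht t' ht' e := by
    have h1 := congrArg Fin.val e
    rw [nd_val hm (by omega), nd_val hm (by omega)] at h1
    omega

end Cartan

section Index

variable {m : ℕ} {W Y : Type*} [Group W] [Group Y] {cs : CoxeterSystem (CoxeterMatrix.B m) W}
  {A : Fin m → Fin m → ℤ} {h : IsCartan (CoxeterMatrix.B m) A} {r : ℕ} {T : Subgroup Y} {n : Fin m → Y}
  {X : (Fin m → ℤ) → Subgroup Y} (R : RGD cs h r T n X)

include R

/-- the order of a parabolic subgroup with an interval of nodes -/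
theorem card_seg [Finite W] [Finite Y] {y : ℕ} (hy : ∀ i : Fin m, (i : ℕ) + 1 < m → Nat.card (X (sr i)) = y) {J : Set (Fin m)}
    {s l : ℕ} (hs : s + l < m) (hin : ∀ j : Fin m, s ≤ (j : ℕ) → (j : ℕ) < s + l → j ∈ J)
    (hlo : ∀ j ∈ J, (j : ℕ) + 1 ≠ s) (hhi : ∀ j ∈ J, (j : ℕ) ≠ s + l) :
    Nat.card ↥(PJ cs h T X J) = (∏ i ∈ Finset.range (l + 1), gs y (i + 1)) *
      Nat.card ↥(PJ cs h T X (J \ {j | s ≤ (j : ℕ) ∧ (j : ℕ) < s + l})) := by
  have hm : 0 < m := by omega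
  have hP := apath_seg h hm hs (J := J)
    (fun t ht => hin _ (by rw [nd_val hm (by omega)]; omega) (by rw [nd_val hm (by omega)]; omega)) hlo hhi
  rw [card_PJ_path R hP (y := y) (fun t ht => hy _ (by rw [nd_val hm (by omega)]; omega)), Finset.prod_range_succ']
  have h1 : gs y (0 + 1) = 1 := by simp [gs]
  have h2 : {j : Fin m | ∃ t < l, nd hm (s + t) = j} = {j : Fin m | s ≤ (j : ℕ) ∧ (j : ℕ) < s + l} := by
    ext j
    simp only [Set.mem_ofPred_eq]
    constructor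
    · rintro ⟨t, ht, rfl⟩
      rw [nd_val hm (by omega)]
      omega
    · rintro ⟨h3, h4⟩
      refine ⟨(j : ℕ) - s, by omega, Fin.ext ?_⟩
      rw [nd_val hm (by omega)]
      omega
  rw [h1, mul_one, h2]
  rfl

/-- **Proper parabolic subgroups.** -/
theorem dvd_relIndex [Finite W] [Finite Y] {y : ℕ} (hy : ∀ i : Fin m, (i : ℕ) + 1 < m → Nat.card (X (sr i)) = y)
    {p : ℕ} [hp : Fact p.Prime] {e w : ℕ} (he : e = orderOf (y : ZMod p)) (he1 : 1 < e) (hm : e * w ≤ m) {K : Set (Fin m)}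
    (hK : K ⊆ JA m e w) (hne : K ≠ JA m e w) : p ∣ (PJ cs h T X K).relIndex (PJ cs h T X (JA m e w)) := by
  obtain ⟨k, hk, hkK⟩ : ∃ k ∈ JA m e w, k ∉ K := by
    by_contra hcon
    push Not at hcon
    exact hne (Set.Subset.antisymm hK hcon)
  -- the block of `k`
  have hdm := Nat.div_add_mod (k : ℕ) e
  have hml := Nat.mod_lt (k : ℕ) (show 0 < e by omega)
  have hk1 : (k : ℕ) + 1 < e * w := hk.1
  have hbw : (k : ℕ) / e < w := Nat.div_lt_of_lt_mul (by omega)
  have hbw' : e * ((k : ℕ) / e) + e ≤ e * w := by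
    have := Nat.mul_le_mul_left e hbw
    rwa [Nat.mul_succ] at this
  have hr : (k : ℕ) % e + 1 < e := by
    by_contra h1
    apply hk.2
    have h2 : (k : ℕ) + 1 = e * ((k : ℕ) / e + 1) := by
      rw [mul_add, mul_one]
      omega
    exact ⟨_, h2⟩
  have hdvd : ∀ t : ℕ, t < e → 0 < t → ¬ e ∣ e * ((k : ℕ) / e) + t := by
    intro t ht ht0 h1
    rw [Nat.dvd_add_right (dvd_mul_right _ _)] at h1
    exact absurd (Nat.le_of_dvd ht0 h1) (by omega)
  have hb0 : e ∣ e * ((k : ℕ) / e) := dvd_mul_right _ _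
  have hb1 : e ∣ e * ((k : ℕ) / e) + e := (Nat.dvd_add_right hb0).2 dvd_rfl
  obtain ⟨c, hc⟩ : ∃ c, c = e * ((k : ℕ) / e) := ⟨_, rfl⟩
  obtain ⟨ρ, hρ⟩ : ∃ ρ, ρ = (k : ℕ) % e := ⟨_, rfl⟩
  rw [← hc] at hdm hbw' hdvd hb0 hb1
  rw [← hρ] at hdm hml hr
  -- the whole block
  have hJ1 := card_seg (cs := cs) (h := h) (T := T) (X := X) R hy (J := JA m e w) (s := c) (l := e - 1) (by omega)
    (fun j h1 h2 => by
      refine ⟨by omega, ?_⟩
      have h3 := hdvd ((j : ℕ) - c + 1) (by omega) (by omega)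
      have h4 : c + ((j : ℕ) - c + 1) = (j : ℕ) + 1 := by omega
      rwa [h4] at h3)
    (fun j hj h1 => hj.2 (h1 ▸ hb0))
    (fun j hj h1 => hj.2 (by
      have h2 : (j : ℕ) + 1 = c + e := by omega
      rw [h2]
      exact hb1))
  -- the two parts
  have hJ2 := card_seg (cs := cs) (h := h) (T := T) (X := X) R hy (J := JA m e w \ {k}) (s := c) (l := ρ) (by omega)
    (fun j h1 h2 => by
      refine ⟨⟨by omega, ?_⟩, ?_⟩
      · have h3 := hdvd ((j : ℕ) - c + 1) (by omega) (by omega)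
        have h4 : c + ((j : ℕ) - c + 1) = (j : ℕ) + 1 := by omega
        rwa [h4] at h3
      · intro h3
        have h4 : j = k := h3
        rw [h4] at h2
        omega)
    (fun j hj h1 => hj.1.2 (h1 ▸ hb0))
    (fun j hj h1 => hj.2 (Fin.ext (by omega)))
  have hJ3 := card_seg (cs := cs) (h := h) (T := T) (X := X) R hy
    (J := (JA m e w \ {k}) \ {j | c ≤ (j : ℕ) ∧ (j : ℕ) < c + ρ}) (s := k + 1) (l := e - 2 - ρ) (by omega)
    (fun j h1 h2 => by
      refine ⟨⟨⟨by omega, ?_⟩, ?_⟩, ?_⟩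
      · have h3 := hdvd ((j : ℕ) - c + 1) (by omega) (by omega)
        have h4 : c + ((j : ℕ) - c + 1) = (j : ℕ) + 1 := by omega
        rwa [h4] at h3
      · intro h3
        have h4 : j = k := h3
        rw [h4] at h1
        omega
      · rintro ⟨h3, h4⟩
        omega)
    (fun j hj h1 => hj.1.2 (Fin.ext (by omega)))
    (fun j hj h1 => hj.1.1.2 (by
      have h2 : (j : ℕ) + 1 = c + e := by omega
      rw [h2]
      exact hb1))
  have hset : ((JA m e w \ {k}) \ {j | c ≤ (j : ℕ) ∧ (j : ℕ) < c + ρ}) \ {j | (k : ℕ) + 1 ≤ (j : ℕ) ∧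
      (j : ℕ) < (k : ℕ) + 1 + (e - 2 - ρ)} = JA m e w \ {j | c ≤ (j : ℕ) ∧ (j : ℕ) < c + (e - 1)} := by
    ext j
    simp only [Set.mem_sdiff, Set.mem_singleton_iff, Set.mem_ofPred_eq, Fin.ext_iff]
    constructor
    · rintro ⟨⟨⟨h1, h2⟩, h3⟩, h4⟩
      exact ⟨h1, by omega⟩
    · rintro ⟨h1, h2⟩
      exact ⟨⟨⟨h1, by omega⟩, by omega⟩, by omega⟩
  rw [hset] at hJ3
  -- the index
  have hle1 : PJ cs h T X K ≤ PJ cs h T X (JA m e w \ {k}) := Cfsg.Agent.H554.RG.PJ_mono R fun j hj => ⟨hK hj, fun h1 => by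
    rw [Set.mem_singleton_iff] at h1
    exact hkK (h1 ▸ hj)⟩
  have hle2 : PJ cs h T X (JA m e w \ {k}) ≤ PJ cs h T X (JA m e w) := Cfsg.Agent.H554.RG.PJ_mono R Set.sdiff_subset
  refine Dvd.dvd.trans ?_ (Subgroup.relIndex_dvd_of_le_left _ hle1)
  have h1 := Subgroup.relIndex_mul_relIndex ⊥ (PJ cs h T X (JA m e w \ {k})) (PJ cs h T X (JA m e w)) bot_le hle2
  rw [Subgroup.relIndex_bot_left, Subgroup.relIndex_bot_left, hJ1, hJ2, hJ3] at h1
  have hC : 0 < Nat.card ↥(PJ cs h T X (JA m e w \ {j | c ≤ (j : ℕ) ∧ (j : ℕ) < c + (e - 1)})) := Nat.card_pos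
  obtain ⟨C, hCe⟩ : ∃ C, C = Nat.card ↥(PJ cs h T X (JA m e w \ {j | c ≤ (j : ℕ) ∧ (j : ℕ) < c + (e - 1)})) := ⟨_, rfl⟩
  rw [← hCe] at h1 hC
  have h2 : (PJ cs h T X (JA m e w \ {k})).relIndex (PJ cs h T X (JA m e w)) *
      ((∏ i ∈ Finset.range (ρ + 1), gs y (i + 1)) * ∏ i ∈ Finset.range (e - 2 - ρ + 1), gs y (i + 1)) =
      ∏ i ∈ Finset.range (e - 1 + 1), gs y (i + 1) := by
    refine Nat.eq_of_mul_eq_mul_right hC ?_
    rw [← h1]
    ring
  have hnd : ∀ l ≤ e - 1, ¬ p ∣ ∏ i ∈ Finset.range l, gs y (i + 1) := by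
    intro l hl h3
    obtain ⟨i, hi, h4⟩ := (hp.out.prime.dvd_finsetProd_iff _).1 h3
    rw [Finset.mem_range] at hi
    have h5 := pow_eq_one_of_dvd_gs h4
    have h6 := Nat.le_of_dvd (Nat.succ_pos i) (orderOf_dvd_of_pow_eq_one h5)
    omega
  have hd : p ∣ ∏ i ∈ Finset.range (e - 1 + 1), gs y (i + 1) := by
    refine dvd_trans ?_ (Finset.dvd_prod_of_mem (fun i => gs y (i + 1)) (Finset.mem_range.2 (Nat.lt_succ_self (e - 1))))
    change p ∣ gs y (e - 1 + 1)
    have h3 : e - 1 + 1 = e := by omega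
    rw [h3, ← ZMod.natCast_eq_zero_iff]
    have h4 : ((gs y e : ℕ) : ZMod p) * ((y : ZMod p) - 1) = (y : ZMod p) ^ e - 1 := by
      unfold gs
      push_cast
      exact geom_sum_mul _ _
    rw [he, pow_orderOf_eq_one, sub_self, ← he] at h4
    refine (mul_eq_zero.1 h4).resolve_right fun h5 => ?_
    rw [sub_eq_zero] at h5
    rw [h5, orderOf_one] at he
    omega
  rw [← h2] at hd
  rcases (hp.out.dvd_mul).1 hd with h3 | h3
  · exact h3
  · rcases (hp.out.dvd_mul).1 h3 with h4 | h4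
    · exact absurd h4 (hnd _ (by omega))
    · exact absurd h4 (hnd _ (by omega))

end Index

end Cfsg.Agent.H614.XZ
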